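import Cfsg.Agent.Lib.Helper30.Fi22Rep.Grp

/-!
# The relators of Fi22 hold for the nine matrices: checks, part 1 (helper30)
-/

set_option autoImplicit false
set_option maxRecDepth 100000

namespace Cfsg.Agent.Lib.Helper30.Fi22Rep

theorem chk_1_0 : ∀ w ∈ grp1, ∀ i ∈ List.range' 0 3, evalR gen w (B ^ i) = B ^ i := by
  decide +kernel

theorem chk_1_3 : ∀ w ∈ grp1, ∀ i ∈ List.range' 3 3, evalR gen w (B ^ i) = B ^ i := by
  decide +kernel

theorem chk_1_6 : ∀ w ∈ grp1, ∀ i ∈ List.range' 6 3, evalR gen w (B ^ i) = B ^ i := by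
  decide +kernel

theorem chk_1_9 : ∀ w ∈ grp1, ∀ i ∈ List.range' 9 3, evalR gen w (B ^ i) = B ^ i := by
  decide +kernel

theorem chk_1_12 : ∀ w ∈ grp1, ∀ i ∈ List.range' 12 3, evalR gen w (B ^ i) = B ^ i := by
  decide +kernel

theorem chk_1_15 : ∀ w ∈ grp1, ∀ i ∈ List.range' 15 3, evalR gen w (B ^ i) = B ^ i := by
  decide +kernel

theorem chk_1_18 : ∀ w ∈ grp1, ∀ i ∈ List.range' 18 3, evalR gen w (B ^ i) = B ^ i := by
  decide +kernel

theorem chk_1_21 : ∀ w ∈ grp1, ∀ i ∈ List.range' 21 3, evalR gen w (B ^ i) = B ^ i := by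
  decide +kernel

theorem chk_1_24 : ∀ w ∈ grp1, ∀ i ∈ List.range' 24 3, evalR gen w (B ^ i) = B ^ i := by
  decide +kernel

theorem chk_1_27 : ∀ w ∈ grp1, ∀ i ∈ List.range' 27 3, evalR gen w (B ^ i) = B ^ i := by
  decide +kernel

end Cfsg.Agent.Lib.Helper30.Fi22Rep
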