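import Cfsg.Agent.Lib.Helper30.Fi22Rep.Grp

/-!
# The relators of Fi22 hold for the nine matrices: checks, part 2 (helper30)
-/

set_option autoImplicit false
set_option maxRecDepth 100000

namespace Cfsg.Agent.Lib.Helper30.Fi22Rep

theorem chk_1_30 : ∀ w ∈ grp1, ∀ i ∈ List.range' 30 3, evalR gen w (B ^ i) = B ^ i := by
  decide +kernel

theorem chk_1_33 : ∀ w ∈ grp1, ∀ i ∈ List.range' 33 3, evalR gen w (B ^ i) = B ^ i := by
  decide +kernel

theorem chk_1_36 : ∀ w ∈ grp1, ∀ i ∈ List.range' 36 3, evalR gen w (B ^ i) = B ^ i := by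
  decide +kernel

theorem chk_1_39 : ∀ w ∈ grp1, ∀ i ∈ List.range' 39 3, evalR gen w (B ^ i) = B ^ i := by
  decide +kernel

theorem chk_1_42 : ∀ w ∈ grp1, ∀ i ∈ List.range' 42 3, evalR gen w (B ^ i) = B ^ i := by
  decide +kernel

theorem chk_1_45 : ∀ w ∈ grp1, ∀ i ∈ List.range' 45 3, evalR gen w (B ^ i) = B ^ i := by
  decide +kernel

theorem chk_1_48 : ∀ w ∈ grp1, ∀ i ∈ List.range' 48 3, evalR gen w (B ^ i) = B ^ i := by
  decide +kernel

theorem chk_1_51 : ∀ w ∈ grp1, ∀ i ∈ List.range' 51 3, evalR gen w (B ^ i) = B ^ i := by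
  decide +kernel

theorem chk_1_54 : ∀ w ∈ grp1, ∀ i ∈ List.range' 54 3, evalR gen w (B ^ i) = B ^ i := by
  decide +kernel

theorem chk_1_57 : ∀ w ∈ grp1, ∀ i ∈ List.range' 57 3, evalR gen w (B ^ i) = B ^ i := by
  decide +kernel

end Cfsg.Agent.Lib.Helper30.Fi22Rep
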