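import Cfsg.Agent.Lib.Helper30.Fi22Rep.Grp

/-!
# The relators of Fi22 hold for the nine matrices: checks, part 3 (helper30)
-/

set_option autoImplicit false
set_option maxRecDepth 100000

namespace Cfsg.Agent.Lib.Helper30.Fi22Rep

theorem chk_1_60 : ∀ w ∈ grp1, ∀ i ∈ List.range' 60 3, evalR gen w (B ^ i) = B ^ i := by
  decide +kernel

theorem chk_1_63 : ∀ w ∈ grp1, ∀ i ∈ List.range' 63 3, evalR gen w (B ^ i) = B ^ i := by
  decide +kernel

theorem chk_1_66 : ∀ w ∈ grp1, ∀ i ∈ List.range' 66 3, evalR gen w (B ^ i) = B ^ i := by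
  decide +kernel

theorem chk_1_69 : ∀ w ∈ grp1, ∀ i ∈ List.range' 69 3, evalR gen w (B ^ i) = B ^ i := by
  decide +kernel

theorem chk_1_72 : ∀ w ∈ grp1, ∀ i ∈ List.range' 72 3, evalR gen w (B ^ i) = B ^ i := by
  decide +kernel

theorem chk_1_75 : ∀ w ∈ grp1, ∀ i ∈ List.range' 75 3, evalR gen w (B ^ i) = B ^ i := by
  decide +kernel

theorem chk_2_0 : ∀ w ∈ grp2, ∀ i ∈ List.range' 0 6, evalR gen w (B ^ i) = B ^ i := by
  decide +kernel

theorem chk_2_6 : ∀ w ∈ grp2, ∀ i ∈ List.range' 6 6, evalR gen w (B ^ i) = B ^ i := by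
  decide +kernel

theorem chk_2_12 : ∀ w ∈ grp2, ∀ i ∈ List.range' 12 6, evalR gen w (B ^ i) = B ^ i := by
  decide +kernel

theorem chk_2_18 : ∀ w ∈ grp2, ∀ i ∈ List.range' 18 6, evalR gen w (B ^ i) = B ^ i := by
  decide +kernel

end Cfsg.Agent.Lib.Helper30.Fi22Rep
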