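import Cfsg.Agent.Lib.Helper30.Fi22Rep.Grp

/-!
# The relators of Fi22 hold for the nine matrices: checks, part 4 (helper30)
-/

set_option autoImplicit false
set_option maxRecDepth 100000

namespace Cfsg.Agent.Lib.Helper30.Fi22Rep

theorem chk_2_24 : ∀ w ∈ grp2, ∀ i ∈ List.range' 24 6, evalR gen w (B ^ i) = B ^ i := by
  decide +kernel

theorem chk_2_30 : ∀ w ∈ grp2, ∀ i ∈ List.range' 30 6, evalR gen w (B ^ i) = B ^ i := by
  decide +kernel

theorem chk_2_36 : ∀ w ∈ grp2, ∀ i ∈ List.range' 36 6, evalR gen w (B ^ i) = B ^ i := by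
  decide +kernel

theorem chk_2_42 : ∀ w ∈ grp2, ∀ i ∈ List.range' 42 6, evalR gen w (B ^ i) = B ^ i := by
  decide +kernel

theorem chk_2_48 : ∀ w ∈ grp2, ∀ i ∈ List.range' 48 6, evalR gen w (B ^ i) = B ^ i := by
  decide +kernel

theorem chk_2_54 : ∀ w ∈ grp2, ∀ i ∈ List.range' 54 6, evalR gen w (B ^ i) = B ^ i := by
  decide +kernel

theorem chk_2_60 : ∀ w ∈ grp2, ∀ i ∈ List.range' 60 6, evalR gen w (B ^ i) = B ^ i := by
  decide +kernel

theorem chk_2_66 : ∀ w ∈ grp2, ∀ i ∈ List.range' 66 6, evalR gen w (B ^ i) = B ^ i := by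
  decide +kernel

theorem chk_2_72 : ∀ w ∈ grp2, ∀ i ∈ List.range' 72 6, evalR gen w (B ^ i) = B ^ i := by
  decide +kernel

theorem chk_3_0 : ∀ w ∈ grp3, ∀ i ∈ List.range' 0 9, evalR gen w (B ^ i) = B ^ i := by
  decide +kernel

end Cfsg.Agent.Lib.Helper30.Fi22Rep
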