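import Cfsg.Agent.Lib.Helper30.Fi22Rep.Grp

/-!
# The relators of Fi22 hold for the nine matrices: checks, part 6 (helper30)
-/

set_option autoImplicit false
set_option maxRecDepth 100000

namespace Cfsg.Agent.Lib.Helper30.Fi22Rep

theorem chk_4_18 : ∀ w ∈ grp4, ∀ i ∈ List.range' 18 9, evalR gen w (B ^ i) = B ^ i := by
  decide +kernel

theorem chk_4_27 : ∀ w ∈ grp4, ∀ i ∈ List.range' 27 9, evalR gen w (B ^ i) = B ^ i := by
  decide +kernel

theorem chk_4_36 : ∀ w ∈ grp4, ∀ i ∈ List.range' 36 9, evalR gen w (B ^ i) = B ^ i := by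
  decide +kernel

theorem chk_4_45 : ∀ w ∈ grp4, ∀ i ∈ List.range' 45 9, evalR gen w (B ^ i) = B ^ i := by
  decide +kernel

theorem chk_4_54 : ∀ w ∈ grp4, ∀ i ∈ List.range' 54 9, evalR gen w (B ^ i) = B ^ i := by
  decide +kernel

theorem chk_4_63 : ∀ w ∈ grp4, ∀ i ∈ List.range' 63 9, evalR gen w (B ^ i) = B ^ i := by
  decide +kernel

theorem chk_4_72 : ∀ w ∈ grp4, ∀ i ∈ List.range' 72 6, evalR gen w (B ^ i) = B ^ i := by
  decide +kernel

end Cfsg.Agent.Lib.Helper30.Fi22Rep
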