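import Mathlib

/-!
# Packed matrix arithmetic over `ZMod 13` (helper30)

A `78 × 78` matrix is a list of `78` natural numbers; a row is packed in base `65536`.
-/

set_option autoImplicit false

namespace Cfsg.Agent.Lib.Helper30.Fi22Rep

/-- the base of the packing -/
def B : ℕ := 65536

/-- the `j`-th digit -/
def dig (x j : ℕ) : ℕ := x / B ^ j % B

theorem dig_zero (x : ℕ) : dig x 0 = x % B := by simp [dig]

theorem dig_succ (x j : ℕ) : dig x (j + 1) = dig (x / B) j := by
  simp [dig, pow_succ', Nat.div_div_eq_div_mul]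

theorem dig_zero_left (j : ℕ) : dig 0 j = 0 := by simp [dig]

/-- all digits are at most `m` -/
def Bd (x m : ℕ) : Prop := ∀ j, dig x j ≤ m

theorem Bd.div {x m : ℕ} (h : Bd x m) : Bd (x / B) m := fun j => by
  rw [← dig_succ]; exact h _

theorem dig_add {x y m n : ℕ} (hx : Bd x m) (hy : Bd y n) (h : m + n < B) (j : ℕ) :
    dig (x + y) j = dig x j + dig y j := by
  induction j generalizing x y with
  | zero =>
    have h1 := hx 0
    have h2 := hy 0
    rw [dig_zero] at h1 h2
    rw [dig_zero, dig_zero, dig_zero, Nat.add_mod, Nat.mod_eq_of_lt (by omega)]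
  | succ j ih =>
    have h1 := hx 0
    have h2 := hy 0
    rw [dig_zero] at h1 h2
    rw [dig_succ, dig_succ, dig_succ, Nat.add_div (by decide : 0 < B), if_neg (by omega), add_zero]
    exact ih hx.div hy.div

theorem dig_cons_zero {a : ℕ} (y : ℕ) (ha : a < B) : dig (a + B * y) 0 = a := by
  rw [dig_zero, Nat.add_mul_mod_self_left, Nat.mod_eq_of_lt ha]

theorem dig_cons_succ {a : ℕ} (y j : ℕ) (ha : a < B) : dig (a + B * y) (j + 1) = dig y j := by
  rw [dig_succ, Nat.add_mul_div_left _ _ (by decide : 0 < B), Nat.div_eq_of_lt ha, zero_add]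

theorem dig_mul {x m c : ℕ} (hx : Bd x m) (h : c * m < B) (j : ℕ) :
    dig (c * x) j = c * dig x j := by
  induction j generalizing x with
  | zero =>
    have h1 := hx 0
    rw [dig_zero] at h1
    have h2 : c * (x % B) < B := lt_of_le_of_lt (Nat.mul_le_mul_left c h1) h
    have e : c * x = c * (x % B) + B * (c * (x / B)) := by
      conv_lhs => rw [← Nat.mod_add_div x B]
      ring
    rw [e, dig_cons_zero _ h2, dig_zero]
  | succ j ih =>
    have h1 := hx 0
    rw [dig_zero] at h1
    have h2 : c * (x % B) < B := lt_of_le_of_lt (Nat.mul_le_mul_left c h1) h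
    have e : c * x = c * (x % B) + B * (c * (x / B)) := by
      conv_lhs => rw [← Nat.mod_add_div x B]
      ring
    rw [e, dig_cons_succ _ _ h2, ih hx.div, dig_succ]

/-- (row vector packed in `x`) times (matrix with packed rows `rs`), not normalised -/
def rowmul : ℕ → List ℕ → ℕ
  | _, [] => 0
  | x, r :: rs => (x % B) * r + rowmul (x / B) rs

theorem rowmul_spec (rs : List ℕ) (hrs : ∀ r ∈ rs, Bd r 12) (hl : rs.length ≤ 78)
    (x : ℕ) (hx : Bd x 12) :
    Bd (rowmul x rs) (144 * rs.length) ∧
      ∀ j, dig (rowmul x rs) j = ∑ k ∈ Finset.range rs.length, dig x k * dig (rs.getD k 0) j := by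
  induction rs generalizing x with
  | nil =>
    refine ⟨fun j => ?_, fun j => ?_⟩
    · simp [rowmul, dig_zero_left]
    · simp [rowmul, dig_zero_left]
  | cons r rs ih =>
    have hl' : rs.length + 1 ≤ 78 := by simpa using hl
    obtain ⟨i1, i2⟩ := ih (fun r hr => hrs r (List.mem_cons_of_mem _ hr)) (by omega) (x / B) hx.div
    have hr : Bd r 12 := hrs r List.mem_cons_self
    have hc : x % B ≤ 12 := by have := hx 0; rwa [dig_zero] at this
    have hcB : (x % B) * 12 < B := by
      have : (x % B) * 12 ≤ 12 * 12 := Nat.mul_le_mul_right 12 hc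
      have hB : (12 * 12 : ℕ) < B := by decide
      omega
    have hm : ∀ j, dig ((x % B) * r) j = (x % B) * dig r j := dig_mul hr hcB
    have hb : Bd ((x % B) * r) 144 := by
      intro j
      rw [hm]
      calc (x % B) * dig r j ≤ 12 * 12 := Nat.mul_le_mul hc (hr j)
        _ = 144 := by norm_num
    have hB : 144 + 144 * rs.length < B := by
      have : B = 65536 := rfl
      omega
    have ha := dig_add hb i1 hB
    refine ⟨fun j => ?_, fun j => ?_⟩
    · show dig ((x % B) * r + rowmul (x / B) rs) j ≤ _
      rw [ha]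
      have h1 := hb j
      have h2 := i1 j
      simp only [List.length_cons]
      omega
    · show dig ((x % B) * r + rowmul (x / B) rs) j = _
      rw [ha, hm, i2, List.length_cons, Finset.sum_range_succ', add_comm]
      congr 1
      · apply Finset.sum_congr rfl
        intro k _
        rw [dig_succ]
        simp
      · rw [dig_zero]
        simp

/-- reduce the first `n` digits modulo `13` and forget the others -/
def norm : ℕ → ℕ → ℕ
  | 0, _ => 0
  | n + 1, x => x % B % 13 + B * norm n (x / B)

theorem dig_norm (n x j : ℕ) : dig (norm n x) j = if j < n then dig x j % 13 else 0 := by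
  induction n generalizing x j with
  | zero => simp [norm, dig_zero_left]
  | succ n ih =>
    have ha : x % B % 13 < B := lt_of_lt_of_le (Nat.mod_lt _ (by norm_num)) (by decide)
    cases j with
    | zero =>
      show dig (x % B % 13 + B * norm n (x / B)) 0 = _
      rw [dig_cons_zero _ ha, dig_zero]
      simp
    | succ j =>
      show dig (x % B % 13 + B * norm n (x / B)) (j + 1) = _
      rw [dig_cons_succ _ _ ha, ih, dig_succ]
      simp

theorem bd_norm (n x : ℕ) : Bd (norm n x) 12 := by
  intro j
  rw [dig_norm]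
  split_ifs
  · have := Nat.mod_lt (dig x j) (by norm_num : 0 < 13)
    omega
  · omega

/-- product of packed matrices -/
def mm (X Y : List ℕ) : List ℕ := X.map (fun x => norm 78 (rowmul x Y))

/-- the matrix of a packed matrix -/
def toMat (X : List ℕ) : Matrix (Fin 78) (Fin 78) (ZMod 13) :=
  fun i j => ((dig (X.getD i 0) j : ℕ) : ZMod 13)

/-- well formed packed matrices -/
structure Good (X : List ℕ) : Prop where
  len : X.length = 78
  bd : ∀ x ∈ X, Bd x 12

theorem good_of_check {X : List ℕ} (h1 : X.length = 78) (h2 : ∀ x ∈ X, norm 78 x = x) : Good X :=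
  ⟨h1, fun x hx => by rw [← h2 x hx]; exact bd_norm _ _⟩

theorem Good.mm {X : List ℕ} (hX : Good X) (Y : List ℕ) : Good (mm X Y) := by
  refine ⟨by simp [Fi22Rep.mm, hX.len], ?_⟩
  intro x hx
  obtain ⟨y, -, rfl⟩ := List.mem_map.mp hx
  exact bd_norm _ _

theorem toMat_mm {X Y : List ℕ} (hX : Good X) (hY : Good Y) :
    toMat (mm X Y) = toMat X * toMat Y := by
  ext i j
  have hi : (i : ℕ) < X.length := by rw [hX.len]; exact i.2
  have hi' : (i : ℕ) < (mm X Y).length := by rw [(hX.mm Y).len]; exact i.2
  have e1 : (mm X Y).getD i 0 = norm 78 (rowmul (X.getD i 0) Y) := by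
    rw [List.getD_eq_getElem _ _ hi', List.getD_eq_getElem _ _ hi]
    simp [mm]
  have hx : Bd (X.getD i 0) 12 := by
    rw [List.getD_eq_getElem _ _ hi]
    exact hX.bd _ (List.getElem_mem hi)
  rw [Matrix.mul_apply]
  simp only [toMat]
  rw [e1, dig_norm, if_pos j.2, ZMod.natCast_mod,
    (rowmul_spec Y hY.bd (le_of_eq hY.len) _ hx).2, hY.len, Nat.cast_sum,
    ← Fin.sum_univ_eq_sum_range (fun k => ((dig (X.getD i 0) k * dig (Y.getD k 0) j : ℕ) : ZMod 13)) 78]
  apply Finset.sum_congr rfl
  intro k _
  rw [Nat.cast_mul]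

/-- the packed identity matrix -/
def idm : List ℕ := (List.range 78).map (fun i => B ^ i)

theorem idm_good : Good idm := good_of_check (by decide +kernel) (by decide +kernel)

theorem toMat_idm : toMat idm = 1 := by
  have key : ∀ i j : Fin 78, dig (idm.getD i 0) j = if i = j then 1 else 0 := by decide +kernel
  ext i j
  simp only [toMat]
  rw [key, Matrix.one_apply]
  split_ifs <;> simp

/-- the packed matrix of a word -/
def evalM (gen : ℕ → List ℕ) (w : List ℕ) : List ℕ := w.foldl (fun acc x => mm acc (gen x)) idm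

theorem foldl_spec (gen : ℕ → List ℕ) (hg : ∀ x, Good (gen x)) (w : List ℕ) (acc : List ℕ)
    (ha : Good acc) :
    toMat (w.foldl (fun acc x => mm acc (gen x)) acc) =
      toMat acc * (w.map (fun x => toMat (gen x))).prod := by
  induction w generalizing acc with
  | nil => simp
  | cons x w ih =>
    rw [List.foldl_cons, ih _ (ha.mm _), toMat_mm ha (hg x), List.map_cons, List.prod_cons, mul_assoc]

theorem toMat_evalM (gen : ℕ → List ℕ) (hg : ∀ x, Good (gen x)) (w : List ℕ) :
    toMat (evalM gen w) = (w.map (fun x => toMat (gen x))).prod := by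
  unfold evalM
  rw [foldl_spec gen hg w idm idm_good, toMat_idm, one_mul]

/-- the invertible matrices given by packed involutions -/
def glOf (gen : ℕ → List ℕ) (h : ∀ x, toMat (gen x) * toMat (gen x) = 1) (x : ℕ) :
    GL (Fin 78) (ZMod 13) := ⟨toMat (gen x), toMat (gen x), h x, h x⟩

theorem glOf_inv (gen : ℕ → List ℕ) (h : ∀ x, toMat (gen x) * toMat (gen x) = 1) (x : ℕ) :
    (glOf gen h x)⁻¹ = glOf gen h x := rfl

theorem prod_glOf (gen : ℕ → List ℕ) (h : ∀ x, toMat (gen x) * toMat (gen x) = 1) (w : List ℕ) :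
    (((w.map (glOf gen h)).prod : GL (Fin 78) (ZMod 13)) : Matrix (Fin 78) (Fin 78) (ZMod 13)) =
      (w.map (fun x => toMat (gen x))).prod := by
  induction w with
  | nil => simp
  | cons x w ih =>
    rw [List.map_cons, List.prod_cons, Units.val_mul, ih, List.map_cons, List.prod_cons]
    rfl

theorem prod_glOf_eq_one (gen : ℕ → List ℕ) (hg : ∀ x, Good (gen x))
    (h : ∀ x, toMat (gen x) * toMat (gen x) = 1) (w : List ℕ) (hw : evalM gen w = idm) :
    (w.map (glOf gen h)).prod = 1 := by
  apply Units.ext
  rw [prod_glOf, ← toMat_evalM gen hg, hw, toMat_idm]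
  rfl

theorem sq_of_check (gen : ℕ → List ℕ) (hg : ∀ x, Good (gen x)) (x : ℕ)
    (hw : evalM gen [x, x] = idm) : toMat (gen x) * toMat (gen x) = 1 := by
  have := toMat_evalM gen hg [x, x]
  rw [hw, toMat_idm] at this
  simpa using this.symm

/-- the image of a packed row vector under a word -/
def evalR (gen : ℕ → List ℕ) (w : List ℕ) (r : ℕ) : ℕ :=
  w.foldl (fun a x => norm 78 (rowmul a (gen x))) r

theorem foldl_eq_map (gen : ℕ → List ℕ) (w : List ℕ) (acc : List ℕ) :
    w.foldl (fun acc x => mm acc (gen x)) acc = acc.map (evalR gen w) := by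
  induction w generalizing acc with
  | nil =>
    have : evalR gen [] = id := rfl
    rw [this, List.map_id]
    rfl
  | cons x w ih =>
    rw [List.foldl_cons, ih, mm, List.map_map]
    rfl

theorem evalM_eq_idm_of_rows (gen : ℕ → List ℕ) (w : List ℕ)
    (h : ∀ i < 78, evalR gen w (B ^ i) = B ^ i) : evalM gen w = idm := by
  unfold evalM
  rw [foldl_eq_map]
  unfold idm
  rw [List.map_map]
  apply List.map_congr_left
  intro i hi
  exact h i (List.mem_range.mp hi)

end Cfsg.Agent.Lib.Helper30.Fi22Rep
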