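import Cfsg.Agent.Lib.Helper30.Fi22Rep.Data
import Cfsg.Agent.Lib.Helper28.Fi22PD

/-!
# The relator words of Fi22 in four groups (helper30)
-/

set_option autoImplicit false
set_option maxRecDepth 100000

namespace Cfsg.Agent.Lib.Helper30.Fi22Rep

open Cfsg.Agent.Lib.Helper28

/-- the Coxeter words -/
def grp1 : List (List ℕ) := Fi22PD.pd.words.take 45
/-- the spider word -/
def grp2 : List (List ℕ) := (Fi22PD.pd.words.drop 45).take 1
/-- the first word of type E7 -/
def grp3 : List (List ℕ) := (Fi22PD.pd.words.drop 46).take 1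
/-- the second word of type E7 -/
def grp4 : List (List ℕ) := Fi22PD.pd.words.drop 47

theorem words_eq : Fi22PD.pd.words = grp1 ++ (grp2 ++ (grp3 ++ grp4)) := by decide +kernel

theorem mem_grp {w : List ℕ} (hw : w ∈ Fi22PD.pd.words) :
    w ∈ grp1 ∨ w ∈ grp2 ∨ w ∈ grp3 ∨ w ∈ grp4 := by
  rw [words_eq] at hw
  simpa only [List.mem_append] using hw

end Cfsg.Agent.Lib.Helper30.Fi22Rep
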