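import Cfsg.Agent.Lib.Helper30.Fi22Rep.C1
import Cfsg.Agent.Lib.Helper30.Fi22Rep.C2
import Cfsg.Agent.Lib.Helper30.Fi22Rep.C3
import Cfsg.Agent.Lib.Helper30.Fi22Rep.C4
import Cfsg.Agent.Lib.Helper30.Fi22Rep.C5
import Cfsg.Agent.Lib.Helper30.Fi22Rep.C6
import Cfsg.Agent.Lib.Helper28.Embed
import Cfsg.Agent.Lib.Helper28.Fi22n3510Simple

/-!
# Fi22 embeds in GL(78, 13) (helper30)

The representation is the constituent of degree 78 of the permutation representation on the
142155 cosets of 2^10:M22, reduced modulo 13; here only the nine matrices matter: they satisfy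
the relators of the presentation, and the presented group is simple.
-/

set_option autoImplicit false
set_option maxRecDepth 100000

namespace Cfsg.Agent.Lib.Helper30.Fi22Rep

open Cfsg.Agent.Lib.Helper28

theorem rows_grp1 : ∀ w ∈ grp1, ∀ i < 78, evalR gen w (B ^ i) = B ^ i := by
  intro w hw i hi
  have h : i ∈ List.range' 0 3 ∨ i ∈ List.range' 3 3 ∨ i ∈ List.range' 6 3 ∨ i ∈ List.range' 9 3 ∨ i ∈ List.range' 12 3 ∨ i ∈ List.range' 15 3 ∨ i ∈ List.range' 18 3 ∨ i ∈ List.range' 21 3 ∨ i ∈ List.range' 24 3 ∨ i ∈ List.range' 27 3 ∨ i ∈ List.range' 30 3 ∨ i ∈ List.range' 33 3 ∨ i ∈ List.range' 36 3 ∨ i ∈ List.range' 39 3 ∨ i ∈ List.range' 42 3 ∨ i ∈ List.range' 45 3 ∨ i ∈ List.range' 48 3 ∨ i ∈ List.range' 51 3 ∨ i ∈ List.range' 54 3 ∨ i ∈ List.range' 57 3 ∨ i ∈ List.range' 60 3 ∨ i ∈ List.range' 63 3 ∨ i ∈ List.range' 66 3 ∨ i ∈ List.range' 69 3 ∨ i ∈ List.range' 72 3 ∨ i ∈ List.range' 75 3 := by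
    simp only [List.mem_range'_1]
    omega
  rcases h with h | h | h | h | h | h | h | h | h | h | h | h | h | h | h | h | h | h | h | h | h | h | h | h | h | h
  · exact chk_1_0 w hw i h
  · exact chk_1_3 w hw i h
  · exact chk_1_6 w hw i h
  · exact chk_1_9 w hw i h
  · exact chk_1_12 w hw i h
  · exact chk_1_15 w hw i h
  · exact chk_1_18 w hw i h
  · exact chk_1_21 w hw i h
  · exact chk_1_24 w hw i h
  · exact chk_1_27 w hw i h
  · exact chk_1_30 w hw i h
  · exact chk_1_33 w hw i h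
  · exact chk_1_36 w hw i h
  · exact chk_1_39 w hw i h
  · exact chk_1_42 w hw i h
  · exact chk_1_45 w hw i h
  · exact chk_1_48 w hw i h
  · exact chk_1_51 w hw i h
  · exact chk_1_54 w hw i h
  · exact chk_1_57 w hw i h
  · exact chk_1_60 w hw i h
  · exact chk_1_63 w hw i h
  · exact chk_1_66 w hw i h
  · exact chk_1_69 w hw i h
  · exact chk_1_72 w hw i h
  · exact chk_1_75 w hw i h

theorem rows_grp2 : ∀ w ∈ grp2, ∀ i < 78, evalR gen w (B ^ i) = B ^ i := by
  intro w hw i hi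
  have h : i ∈ List.range' 0 6 ∨ i ∈ List.range' 6 6 ∨ i ∈ List.range' 12 6 ∨ i ∈ List.range' 18 6 ∨ i ∈ List.range' 24 6 ∨ i ∈ List.range' 30 6 ∨ i ∈ List.range' 36 6 ∨ i ∈ List.range' 42 6 ∨ i ∈ List.range' 48 6 ∨ i ∈ List.range' 54 6 ∨ i ∈ List.range' 60 6 ∨ i ∈ List.range' 66 6 ∨ i ∈ List.range' 72 6 := by
    simp only [List.mem_range'_1]
    omega
  rcases h with h | h | h | h | h | h | h | h | h | h | h | h | h
  · exact chk_2_0 w hw i h
  · exact chk_2_6 w hw i h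
  · exact chk_2_12 w hw i h
  · exact chk_2_18 w hw i h
  · exact chk_2_24 w hw i h
  · exact chk_2_30 w hw i h
  · exact chk_2_36 w hw i h
  · exact chk_2_42 w hw i h
  · exact chk_2_48 w hw i h
  · exact chk_2_54 w hw i h
  · exact chk_2_60 w hw i h
  · exact chk_2_66 w hw i h
  · exact chk_2_72 w hw i h

theorem rows_grp3 : ∀ w ∈ grp3, ∀ i < 78, evalR gen w (B ^ i) = B ^ i := by
  intro w hw i hi
  have h : i ∈ List.range' 0 9 ∨ i ∈ List.range' 9 9 ∨ i ∈ List.range' 18 9 ∨ i ∈ List.range' 27 9 ∨ i ∈ List.range' 36 9 ∨ i ∈ List.range' 45 9 ∨ i ∈ List.range' 54 9 ∨ i ∈ List.range' 63 9 ∨ i ∈ List.range' 72 6 := by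
    simp only [List.mem_range'_1]
    omega
  rcases h with h | h | h | h | h | h | h | h | h
  · exact chk_3_0 w hw i h
  · exact chk_3_9 w hw i h
  · exact chk_3_18 w hw i h
  · exact chk_3_27 w hw i h
  · exact chk_3_36 w hw i h
  · exact chk_3_45 w hw i h
  · exact chk_3_54 w hw i h
  · exact chk_3_63 w hw i h
  · exact chk_3_72 w hw i h

theorem rows_grp4 : ∀ w ∈ grp4, ∀ i < 78, evalR gen w (B ^ i) = B ^ i := by
  intro w hw i hi
  have h : i ∈ List.range' 0 9 ∨ i ∈ List.range' 9 9 ∨ i ∈ List.range' 18 9 ∨ i ∈ List.range' 27 9 ∨ i ∈ List.range' 36 9 ∨ i ∈ List.range' 45 9 ∨ i ∈ List.range' 54 9 ∨ i ∈ List.range' 63 9 ∨ i ∈ List.range' 72 6 := by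
    simp only [List.mem_range'_1]
    omega
  rcases h with h | h | h | h | h | h | h | h | h
  · exact chk_4_0 w hw i h
  · exact chk_4_9 w hw i h
  · exact chk_4_18 w hw i h
  · exact chk_4_27 w hw i h
  · exact chk_4_36 w hw i h
  · exact chk_4_45 w hw i h
  · exact chk_4_54 w hw i h
  · exact chk_4_63 w hw i h
  · exact chk_4_72 w hw i h

theorem words_ok : ∀ w ∈ Fi22PD.pd.words, evalM gen w = idm := by
  intro w hw
  apply evalM_eq_idm_of_rows
  rcases mem_grp hw with h | h | h | h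
  · exact rows_grp1 w h
  · exact rows_grp2 w h
  · exact rows_grp3 w h
  · exact rows_grp4 w h

theorem gen_ge (x : ℕ) (hx : ¬ x < 9) : gen x = gen 8 := by
  obtain ⟨k, rfl⟩ : ∃ k, x = k + 9 := ⟨x - 9, by omega⟩
  rfl

theorem gen_good : ∀ x, Good (gen x) := by
  have key : ∀ x < 9, (gen x).length = 78 ∧ ∀ r ∈ gen x, norm 78 r = r := by decide +kernel
  intro x
  by_cases hx : x < 9
  · exact good_of_check (key x hx).1 (key x hx).2
  · rw [gen_ge x hx]
    exact good_of_check (key 8 (by norm_num)).1 (key 8 (by norm_num)).2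

theorem gen_sq : ∀ x, toMat (gen x) * toMat (gen x) = 1 := by
  have key : ∀ x < 9, [x, x] ∈ Fi22PD.pd.words := by decide +kernel
  intro x
  by_cases hx : x < 9
  · exact sq_of_check gen gen_good x (words_ok _ (key x hx))
  · rw [gen_ge x hx]
    exact sq_of_check gen gen_good 8 (words_ok _ (key 8 (by norm_num)))

theorem gen0_ne : glOf gen gen_sq 0 ≠ 1 := by
  intro h
  have h1 : toMat (gen 0) = 1 := congrArg Units.val h
  have h2 := congrFun (congrFun h1 1) 0
  simp only [toMat] at h2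
  rw [Matrix.one_apply_ne (by decide), ZMod.natCast_eq_zero_iff] at h2
  revert h2
  decide +kernel

theorem evalW_glOf (w : List ℕ) (hw : w ∈ Fi22PD.pd.words) : evalW (glOf gen gen_sq) w = 1 := by
  unfold evalW
  exact prod_glOf_eq_one gen gen_good gen_sq w (words_ok w hw)

theorem glOf_pd_inv (x : ℕ) (hx : x < Fi22PD.pd.K) :
    glOf gen gen_sq (Fi22PD.pd.inv x) = (glOf gen gen_sq x)⁻¹ := by
  have hx' : x < 9 := hx
  have e : Fi22PD.pd.inv x = x := by interval_cases x <;> rfl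
  rw [e, glOf_inv]

theorem exists_rep :
    ∃ f : PresentedGroup Fi22PD.pd.rels →* GL (Fin 78) (ZMod 13), Function.Injective f := by
  obtain ⟨f, hf, -⟩ := Fi22PD.pd_ok.exists_embedding Fi22PD.pd_wordsK Fi22PD.pd_letters
    Fi22n3510.main.1 (glOf gen gen_sq) evalW_glOf glOf_pd_inv 0 (by decide) gen0_ne
  exact ⟨f, hf⟩

end Cfsg.Agent.Lib.Helper30.Fi22Rep
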